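import Mathlib
import Cfsg.Agent.Lib.Helper71.SUG2.Defs
import Cfsg.Agent.Lib.Helper13.UTransvComm
import Cfsg.Agent.Lib.Helper13.Herm

/-!
# Project SUG (S2412), block [II], package [II-CK] (helper77)

`C(K)` is closed under zero, non-zero scalars, third points, and is `K`-stable.
-/

set_option autoImplicit false
open scoped Matrix

namespace Cfsg.Agent.Lib.Helper77.SUG2

open Cfsg.Agent.Lib.Helper71.SUG2

universe u

section

set_option linter.unusedSectionVars false

variable {F : Type u} [Field F] [Fintype F]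

theorem ck_mem_iff {n : ℕ} (K : Subgroup ↥(Cfsg.SU n F 2)) (v : Fin n → F) :
    v ∈ CK K ↔ (H n F v v = 0 ∧ ∀ g : ↥(Cfsg.SU n F 2), smat g = Tmat n F v → g ∈ K) :=
  Iff.rfl

theorem ck_one_sq (hF : Fintype.card F = 2 ^ 2) : ((1 : F)) ^ 2 = -1 := by
  have h2 := f4_two hF
  linear_combination h2

/-- [II-EX] inline: the transvection of an isotropic vector lies in `SU`. -/
theorem ck_ex (hF : Fintype.card F = 2 ^ 2) (n : ℕ) (v : Fin n → F) (hv : H n F v v = 0) :
    ∃ g : ↥(Cfsg.SU n F 2), smat g = Tmat n F v :=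
  ⟨Cfsg.Agent.Lib.Helper13.suMk (Tmat n F v) (Cfsg.Agent.Lib.Helper13.det_utransv v 1 hv)
    (Cfsg.Agent.Lib.Helper13.isHermIso_utransv hF v 1 hv (ck_one_sq hF)), rfl⟩

theorem ck_tmat_zero (n : ℕ) : Tmat n F (0 : Fin n → F) = 1 := by
  rw [Matrix.ext_iff_mulVec]
  intro x
  rw [Tmat_mulVec, smul_zero, add_zero, Matrix.one_mulVec]

theorem ck_tmat_smul (hF : Fintype.card F = 2 ^ 2) (n : ℕ) (a : F) (ha : a ≠ 0)
    (v : Fin n → F) : Tmat n F (a • v) = Tmat n F v := by
  rw [Matrix.ext_iff_mulVec]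
  intro x
  rw [Tmat_mulVec, Tmat_mulVec]
  have h3 := f4_cube hF a ha
  have h : H n F x (a • v) = a ^ 2 * H n F x v :=
    Cfsg.Agent.Lib.Helper13.hermForm_smul_right n 2 a x v
  rw [h, smul_smul]
  congr 2
  linear_combination (H n F x v) * h3

theorem ck_conj (n : ℕ) (g : ↥(Cfsg.SU n F 2)) (v : Fin n → F) :
    smat g * Tmat n F v * smat g⁻¹ = Tmat n F (smat g *ᵥ v) := by
  rw [Matrix.ext_iff_mulVec]
  intro x
  rw [← Matrix.mulVec_mulVec, ← Matrix.mulVec_mulVec, Tmat_mulVec, Tmat_mulVec,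
    Matrix.mulVec_add, Matrix.mulVec_smul, smat_mulVec_inv]
  congr 2
  rw [← H_smat g (smat g⁻¹ *ᵥ x) v, smat_mulVec_inv]

end

/-- [II-CK] -/
theorem pkgCK : PkgCK.{u} := by
  intro F _ _ hF n K
  have hstab : ∀ g ∈ K, ∀ v ∈ CK K, smat g *ᵥ v ∈ CK K := by
    intro g hg v hv
    rw [ck_mem_iff] at hv ⊢
    obtain ⟨hv0, hvK⟩ := hv
    refine ⟨?_, ?_⟩
    · rw [H_smat]; exact hv0
    · intro g' hg'
      obtain ⟨t, ht⟩ := ck_ex hF n v hv0
      have htK : t ∈ K := hvK t ht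
      have e : g' = g * t * g⁻¹ := by
        apply smat_ext
        rw [hg', smat_mul, smat_mul, ht, ck_conj]
      rw [e]
      exact K.mul_mem (K.mul_mem hg htK) (K.inv_mem hg)
  refine ⟨⟨?_, ?_, ?_⟩, hstab⟩
  · rw [ck_mem_iff]
    refine ⟨?_, ?_⟩
    · exact Cfsg.Agent.Lib.Helper13.hermForm_zero_left n 2 0
    · intro g hg
      have e : g = 1 := by
        apply smat_ext
        rw [hg, ck_tmat_zero, smat_one]
      rw [e]; exact K.one_mem
  · intro v hv a ha
    rw [ck_mem_iff] at hv ⊢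
    obtain ⟨hv0, hvK⟩ := hv
    refine ⟨?_, ?_⟩
    · have h1 : H n F (a • v) (a • v) = a * (a ^ 2 * H n F v v) := by
        have e1 : H n F (a • v) (a • v) = a * H n F v (a • v) :=
          Cfsg.Agent.Lib.Helper13.hermForm_smul_left n 2 a v (a • v)
        have e2 : H n F v (a • v) = a ^ 2 * H n F v v :=
          Cfsg.Agent.Lib.Helper13.hermForm_smul_right n 2 a v v
        rw [e1, e2]
      rw [h1, hv0]; ring
    · intro g hg
      rw [ck_tmat_smul hF n a ha v] at hg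
      exact hvK g hg
  · intro e he f hf
    have hf' := (ck_mem_iff K f).mp hf
    obtain ⟨t, ht⟩ := ck_ex hF n f hf'.1
    have htK : t ∈ K := hf'.2 t ht
    have h := hstab t htK e he
    rw [ht, Tmat_mulVec] at h
    exact h

end Cfsg.Agent.Lib.Helper77.SUG2
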